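import Cfsg.Agent.StChar.OSmall
import Cfsg.Agent.S2566
import Cfsg.Agent.S2544
import Cfsg.Agent.Forms.SmallIso

/-!
The character of degree two of `PΩ⁺₄(2)`.
-/

set_option autoImplicit false
set_option maxHeartbeats 1000000

open Matrix
open scoped commutatorElement

namespace CfsgLib.StChar.OPlusTwo

open Cfsg.Agent.S2566

/-- the isometry group over two elements -/
abbrev G := ↥(Cfsg.isometryGroup (ZMod 2) (Cfsg.quadFormPlus 2 (ZMod 2)))

theorem hext (x y : G) (h : matOf x = matOf y) : x = y := Subtype.ext (Units.ext h)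

theorem lr_commute (a b : Equiv.Perm (Fin 3)) : Commute (lhom a) (rhom b) := hext _ _ (lr_comm a b)

/-- both factors -/
def lr : Equiv.Perm (Fin 3) × Equiv.Perm (Fin 3) →* G := MonoidHom.noncommCoprod lhom rhom lr_commute

theorem lr_injective : Function.Injective lr := by
  refine (injective_iff_map_eq_one _).2 fun ⟨σ, τ⟩ h => ?_
  have h' : lmat σ * rmat τ = 1 := congrArg matOf h
  have h1 : lmat σ = rmat τ⁻¹ := by
    have := congrArg (· * rmat τ⁻¹) h'
    simpa [mul_assoc, ← rmat_mul, rmat_one] using this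
  have h2 : σ = 1 := lr_eq σ τ⁻¹ h1
  subst h2
  rw [lmat_one, one_mul] at h'
  rw [rmat_inj τ h']
  rfl

theorem t_not_mem : ∀ σ τ, lmat σ * rmat τ ≠ tmat := by decide

theorem telt_sq : telt * telt = 1 := hext _ _ tmat_sq

theorem telt_conj_l (a : Equiv.Perm (Fin 3)) : telt * lhom a * telt = rhom a := hext _ _ (conj_eq a)

theorem telt_conj_r (a : Equiv.Perm (Fin 3)) : telt * rhom a * telt = lhom a := by
  rw [← telt_conj_l]
  simp only [mul_assoc, telt_sq, mul_one]
  rw [← mul_assoc, telt_sq, one_mul]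

theorem index_range : lr.range.index = 2 := by
  have h := Subgroup.index_mul_card lr.range
  rw [← Nat.card_congr (MonoidHom.ofInjective lr_injective).toEquiv, card_grp, Nat.card_prod,
    Nat.card_eq_fintype_card, Fintype.card_perm, Fintype.card_fin,
    show Nat.factorial 3 = 6 from rfl] at h
  omega

/-- pairs of equal sign -/
def pairs : Subgroup (Equiv.Perm (Fin 3) × Equiv.Perm (Fin 3)) :=
  (Equiv.Perm.sign.comp (MonoidHom.fst _ _)).eqLocus (Equiv.Perm.sign.comp (MonoidHom.snd _ _))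

theorem lr_apply (a b : Equiv.Perm (Fin 3)) : lr (a, b) = lhom a * rhom b :=
  MonoidHom.noncommCoprod_apply lhom rhom lr_commute _

/-- a transposition -/
abbrev s₀ : Equiv.Perm (Fin 3) := Equiv.swap 0 1

theorem sign_cases (a : Equiv.Perm (Fin 3)) : Equiv.Perm.sign a = 1 ∨ Equiv.Perm.sign a = -1 :=
  Int.units_eq_one_or _

theorem commutator_le : commutator G ≤ pairs.map lr := by
  have hs : s₀ * s₀ = 1 := Equiv.swap_mul_self _ _
  have hl2 : lhom s₀ * lhom s₀ = 1 := by rw [← map_mul, hs, map_one]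
  have hsign : Equiv.Perm.sign s₀ = -1 := Equiv.Perm.sign_swap (by decide)
  have hH : ∀ a b, Equiv.Perm.sign a = Equiv.Perm.sign b → lhom a * rhom b ∈ pairs.map lr :=
    fun a b h => ⟨(a, b), h, lr_apply a b⟩
  refine CfsgLib.Forms.commutator_le_of_generators (S := {telt, lhom s₀}) ?_ ?_ ?_
  · intro g hg
    have key : ∀ h ∈ pairs.map lr, g * h * g⁻¹ ∈ pairs.map lr := by
      rintro _ ⟨⟨a, b⟩, hab, rfl⟩
      have hab' : Equiv.Perm.sign a = Equiv.Perm.sign b := hab
      rw [lr_apply]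
      rcases hg with rfl | rfl
      · rw [inv_eq_of_mul_eq_one_right telt_sq]
        have : telt * (lhom a * rhom b) * telt = rhom a * lhom b := by
          rw [← telt_conj_l a, ← telt_conj_r b]
          simp only [mul_assoc]
          rw [← mul_assoc telt telt, telt_sq, one_mul]
        rw [this, ← (lr_commute b a).eq]
        exact hH b a hab'.symm
      · rw [← map_inv]
        have : lhom s₀ * (lhom a * rhom b) * lhom s₀⁻¹ = lhom (s₀ * a * s₀⁻¹) * rhom b := by
          rw [map_mul, map_mul, mul_assoc, mul_assoc, mul_assoc, mul_assoc, (lr_commute s₀⁻¹ b).eq]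
        rw [this]
        exact hH _ _ (by simp [hsign, hab'])
    refine Subgroup.mem_normalizer_iff.2 fun h => ⟨key h, fun hh => ?_⟩
    have hg2 : g * g = 1 := by rcases hg with rfl | rfl; exacts [telt_sq, hl2]
    have hgi : g⁻¹ = g := inv_eq_of_mul_eq_one_right hg2
    have := key _ hh
    rwa [hgi, ← mul_assoc, ← mul_assoc, hg2, one_mul, mul_assoc, hg2, mul_one] at this
  · rintro g (rfl | rfl) h (rfl | rfl)
    · exact ⟨1, one_mem _, (one_mul _).symm⟩
    · refine ⟨lhom s₀ * rhom s₀, hH _ _ rfl, ?_⟩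
      rw [(lr_commute s₀ s₀).eq, ← telt_conj_l s₀]
      simp only [mul_assoc]
      rw [← mul_assoc (lhom s₀) (lhom s₀), hl2, one_mul, telt_sq, mul_one]
    · refine ⟨lhom s₀ * rhom s₀, hH _ _ rfl, ?_⟩
      rw [← telt_conj_l s₀]
      simp only [mul_assoc]
      rw [← mul_assoc telt telt, telt_sq, one_mul, hl2, mul_one]
    · exact ⟨1, one_mem _, (one_mul _).symm⟩
  · intro g
    set K := Subgroup.closure ({telt, lhom s₀} : Set G) ⊔ pairs.map lr
    have hl : lhom s₀ ∈ K := Subgroup.mem_sup_left (Subgroup.subset_closure (Or.inr rfl))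
    have ht : telt ∈ K := Subgroup.mem_sup_left (Subgroup.subset_closure (Or.inl rfl))
    have hr : lr.range ≤ K := by
      rintro _ ⟨⟨a, b⟩, rfl⟩
      by_cases h : Equiv.Perm.sign a = Equiv.Perm.sign b
      · exact Subgroup.mem_sup_right ⟨(a, b), h, rfl⟩
      · have : lr (a, b) = lhom s₀ * lr (s₀ * a, b) := by
          rw [lr_apply, lr_apply, ← mul_assoc, ← map_mul, ← mul_assoc, hs, one_mul]
        rw [this]
        refine mul_mem hl (Subgroup.mem_sup_right ⟨(s₀ * a, b), ?_, rfl⟩)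
        show Equiv.Perm.sign (s₀ * a) = Equiv.Perm.sign b
        rcases sign_cases a with ha | ha <;> rcases sign_cases b with hb | hb <;> simp_all
    by_cases hg : g ∈ lr.range
    · exact hr hg
    · have htn : telt ∉ lr.range := fun ⟨⟨a, b⟩, h⟩ => t_not_mem a b (congrArg matOf ((lr_apply a b).symm.trans h))
      have hgt : g * telt ∈ lr.range :=
        (Subgroup.mul_mem_iff_of_index_two index_range).2 (iff_of_false hg htn)
      have : g = g * telt * telt := by rw [mul_assoc, telt_sq, mul_one]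
      rw [this]
      exact mul_mem (hr hgt) ht

theorem mem_range (x : commutator G) : (x : G) ∈ lr.range := by
  obtain ⟨y, -, hy⟩ := commutator_le x.2
  exact ⟨y, hy⟩

/-- the first component -/
noncomputable def proj : commutator G →* Equiv.Perm (Fin 3) :=
  ((MonoidHom.fst _ _).comp (MonoidHom.ofInjective lr_injective).symm.toMonoidHom).comp
    ((commutator G).subtype.codRestrict lr.range mem_range)

theorem proj_eq (x : commutator G) (y : Equiv.Perm (Fin 3) × Equiv.Perm (Fin 3)) (h : lr y = (x : G)) :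
    proj x = y.1 := by
  have : (MonoidHom.ofInjective lr_injective).symm ⟨(x : G), mem_range x⟩ = y := by
    rw [MulEquiv.symm_apply_eq]
    exact Subtype.ext h.symm
  exact congrArg Prod.fst this

theorem proj_surjective : Function.Surjective proj := by
  intro a
  refine ⟨⟨⁅telt, lhom a⁻¹⁆, Subgroup.commutator_mem_commutator (Subgroup.mem_top _) (Subgroup.mem_top _)⟩, ?_⟩
  refine proj_eq _ (a, a⁻¹) ?_
  rw [lr_apply, (lr_commute a a⁻¹).eq]
  show rhom a⁻¹ * lhom a = ⁅telt, lhom a⁻¹⁆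
  rw [commutatorElement_def, inv_eq_of_mul_eq_one_right telt_sq, telt_conj_l, ← map_inv, inv_inv]

theorem proj_ker_cube (x : commutator G) (hx : proj x = 1) : x ^ 3 = 1 := by
  obtain ⟨⟨a, b⟩, hab, hy⟩ := commutator_le x.2
  have ha : a = 1 := (proj_eq x _ hy).symm.trans hx
  subst ha
  have hb : Equiv.Perm.sign b = 1 := by
    have : Equiv.Perm.sign (1 : Equiv.Perm (Fin 3)) = Equiv.Perm.sign b := hab
    rw [← this, map_one]
  have h3 : ∀ b : Equiv.Perm (Fin 3), Equiv.Perm.sign b = 1 → b ^ 3 = 1 := by decide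
  refine Subtype.ext ?_
  rw [SubgroupClass.coe_pow, ← hy, ← map_pow, Prod.pow_mk, h3 b hb, one_pow]
  exact map_one lr

theorem two_ne_three (j : ℕ) {M : Type*} [Monoid M] (x : M) (h3 : x ^ 3 = 1) (h2 : x ^ 2 ^ j = 1) :
    x = 1 := by
  have := pow_gcd_eq_one.2 ⟨h3, h2⟩
  rwa [Nat.Coprime.gcd_eq_one (Nat.Coprime.pow_right j (by norm_num : Nat.Coprime 3 2)), pow_one] at this

theorem perm_center : ∀ x : Equiv.Perm (Fin 3), (∀ y, y * x = x * y) → x = 1 := by decide

/-- `S₃` as matrices -/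
def smat (σ : Equiv.Perm (Fin 3)) : Matrix (Fin 2) (Fin 2) (ZMod 2) :=
  Matrix.of fun p q => nz (σ q.castSucc) p

theorem smat_one : smat 1 = 1 := by decide
theorem smat_mul : ∀ σ τ, smat (σ * τ) = smat σ * smat τ := by decide
theorem smat_inj : ∀ σ τ, smat σ = smat τ → σ = τ := by decide
theorem smat_det : ∀ σ, (smat σ) 0 0 * (smat σ) 1 1 - (smat σ) 0 1 * (smat σ) 1 0 = 1 := by decide
theorem smat_surj : ∀ M : Matrix (Fin 2) (Fin 2) (ZMod 2),
    M 0 0 * M 1 1 - M 0 1 * M 1 0 = 1 → ∃ σ, smat σ = M := by decide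

/-- `S₃` into the special linear group -/
def shom : Equiv.Perm (Fin 3) →* Matrix.SpecialLinearGroup (Fin 2) (ZMod 2) where
  toFun σ := ⟨smat σ, by rw [Matrix.det_fin_two]; exact smat_det σ⟩
  map_one' := Subtype.ext smat_one
  map_mul' σ τ := Subtype.ext (smat_mul σ τ)

theorem steinberg_perm :
    ∃ χ : Equiv.Perm (Fin 3) → ℂ, Cfsg.IsIrrCharacter (Equiv.Perm (Fin 3)) χ ∧
      ∀ P : Sylow 2 (Equiv.Perm (Fin 3)), χ 1 = Nat.card P ∧
        ∀ x : Equiv.Perm (Fin 3), x ∈ P → x ≠ 1 → χ x = 0 := by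
  have hs : Function.Surjective shom := fun A => by
    obtain ⟨σ, hσ⟩ := smat_surj A.1 (by rw [← Matrix.det_fin_two]; exact A.2)
    exact ⟨σ, Subtype.ext hσ⟩
  refine CfsgLib.StChar.Orth.steinberg_of_surjective
    ((QuotientGroup.mk' (Subgroup.center (Matrix.SpecialLinearGroup (Fin 2) (ZMod 2)))).comp shom)
    ((QuotientGroup.mk'_surjective _).comp hs) ?_ (Cfsg.Agent.S2544.result 2 2 le_rfl)
  intro x hx _
  refine perm_center x fun y => smat_inj _ _ ?_
  rw [smat_mul, smat_mul]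
  exact congrArg Subtype.val (Subgroup.mem_center_iff.1 ((QuotientGroup.eq_one_iff _).1 hx) (shom y))

section Transport

variable {K F : Type*} [Field K] [Field F] {ι : Type} [Fintype ι] [DecidableEq ι]

theorem exists_ringEquiv_iso (r : K ≃+* F) (Q : (ι → K) → K) (Q' : (ι → F) → F)
    (hQ : ∀ v : ι → K, Q' (r ∘ v) = r (Q v)) :
    Nonempty (Cfsg.isometryGroup K Q ≃* Cfsg.isometryGroup F Q') := by
  let e : GL ι K ≃* GL ι F := Units.mapEquiv r.mapMatrix.toMulEquiv
  have hval : ∀ g : GL ι K, ∀ v : ι → K, (e g).1 *ᵥ (r ∘ v) = r ∘ (g.1 *ᵥ v) := fun g v => by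
    funext i
    show ∑ j, r (g.1 i j) * r (v j) = r (∑ j, g.1 i j * v j)
    simp [map_sum]
  have hmap : (Cfsg.isometryGroup K Q).map e.toMonoidHom = Cfsg.isometryGroup F Q' := by
    ext g
    constructor
    · rintro ⟨s, hs, rfl⟩
      refine CfsgLib.Forms.mem_isometryGroup.2 fun w => ?_
      obtain ⟨v, rfl⟩ : ∃ v : ι → K, r ∘ v = w := ⟨r.symm ∘ w, by funext i; simp⟩
      show Q' ((e s).1 *ᵥ (r ∘ v)) = Q' (r ∘ v)
      rw [hval, hQ, hQ, CfsgLib.Forms.mem_isometryGroup.1 hs]
    · intro hg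
      obtain ⟨s, rfl⟩ := e.surjective g
      refine ⟨s, CfsgLib.Forms.mem_isometryGroup.2 fun v => r.injective ?_, rfl⟩
      rw [← hQ, ← hQ, ← hval, CfsgLib.Forms.mem_isometryGroup.1 hg]
  exact ⟨(e.subgroupMap _).trans (MulEquiv.subgroupCongr hmap)⟩

theorem exists_commutator_iso {A B : Type*} [Group A] [Group B] (e : A ≃* B) :
    Nonempty (commutator A ≃* commutator B) := by
  have hc : (commutator A).map e.toMonoidHom = commutator B := by
    rw [commutator_def, Subgroup.map_commutator, ← MonoidHom.range_eq_map,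
      MonoidHom.range_eq_top.2 e.surjective, ← commutator_def]
  exact ⟨(e.subgroupMap _).trans (MulEquiv.subgroupCongr hc)⟩

end Transport

theorem steinberg_plus_two {F : Type*} [Field F] [Fintype F] (p : ℕ) [Fact p.Prime] [CharP F p]
    (hF : Fintype.card F = 2) :
    ∃ χ : Cfsg.POmega F (Cfsg.quadFormPlus 2 F) → ℂ,
      Cfsg.IsIrrCharacter (Cfsg.POmega F (Cfsg.quadFormPlus 2 F)) χ ∧
      ∀ P : Sylow p (Cfsg.POmega F (Cfsg.quadFormPlus 2 F)), χ 1 = Nat.card P ∧
        ∀ x : Cfsg.POmega F (Cfsg.quadFormPlus 2 F), x ∈ P → x ≠ 1 → χ x = 0 := by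
  obtain rfl : p = 2 := by
    have h : ((2 : ℕ) : F) = 0 := by rw [← hF, FiniteField.cast_card_eq_zero]
    exact (Nat.prime_dvd_prime_iff_eq Fact.out Nat.prime_two).1 ((CharP.cast_eq_zero_iff F p 2).1 h)
  let r : ZMod 2 ≃+* F := ZMod.ringEquivOfPrime F Nat.prime_two hF
  obtain ⟨e⟩ := exists_ringEquiv_iso r (Cfsg.quadFormPlus 2 (ZMod 2)) (Cfsg.quadFormPlus 2 F)
    (fun v => by simp [Cfsg.quadFormPlus])
  obtain ⟨eΩ⟩ := exists_commutator_iso e.symm
  let π : Cfsg.Omega F (Cfsg.quadFormPlus 2 F) →* Equiv.Perm (Fin 3) := proj.comp eΩ.toMonoidHom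
  have hπ : Function.Surjective π := proj_surjective.comp eΩ.surjective
  have hker : Subgroup.center _ ≤ π.ker := fun z hz => perm_center (π z) fun y => by
    obtain ⟨w, rfl⟩ := hπ y
    rw [← map_mul, Subgroup.mem_center_iff.1 hz w, map_mul]
  refine CfsgLib.StChar.Orth.steinberg_of_surjective (QuotientGroup.lift _ π hker)
    (QuotientGroup.lift_surjective_of_surjective _ _ hπ _) ?_ steinberg_perm
  intro x hx hj
  obtain ⟨j, hj⟩ := hj
  obtain ⟨y, rfl⟩ := QuotientGroup.mk_surjective x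
  refine two_ne_three j _ ?_ hj
  have h3 : y ^ 3 = 1 := eΩ.injective ((map_pow eΩ y 3).trans ((proj_ker_cube _ hx).trans eΩ.map_one.symm))
  rw [← QuotientGroup.mk_pow, h3]
  rfl

end CfsgLib.StChar.OPlusTwo
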